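import Cfsg.Agent.H185.MeetTw
import Cfsg.Agent.H68.MeetBase

/-!
# `MeetIn p`: exceptional groups in their own characteristic (helper808)

`meetIn_rgd`, `meetIn_chev`, `meetIn_2E6`, `meetIn_3D4`: `U ∩ U^{w₀} = 1`.
-/

set_option autoImplicit false
set_option linter.unusedSectionVars false

namespace Cfsg.Agent.H808.Meet

open Cfsg Cfsg.Lie Cfsg.Agent.H68.MeetB

universe u

section rgd

open CoxeterSystem Cfsg.Agent.ChevalleyStructure.CoxeterGeom Cfsg.Agent.Tits.Roots Cfsg.Agent.Tits.Core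
  Cfsg.Agent.Tits.Exchange Cfsg.Agent.Nodes.Reps Cfsg.Agent.Nodes.BNOf Cfsg.Agent.Nodes.StabComb
  Cfsg.Agent.Nodes.Bruhat Cfsg.Agent.Nodes.OppDec
  Cfsg.Agent.KFacts.RgdAut Cfsg.Agent.KFacts.RgdDiag Cfsg.Agent.KFacts.RgdAutFacts

variable {I W Y : Type*} [Fintype I] [DecidableEq I] [Group W] [Group Y] {M : CoxeterMatrix I}
  {cs : CoxeterSystem M W} {A : I → I → ℤ} {h : IsCartan M A} {p : ℕ} {T : Subgroup Y} {n : I → Y}
  {X : (I → ℤ) → Subgroup Y}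

/-- **root group data** -/
theorem meetIn_rgd (R : RGD cs h p T n X) [Finite W] [Finite Y] [Fact p.Prime] (hG : GG cs h T X = ⊤) :
    MeetIn p Y := by
  obtain ⟨S, hS⟩ := exists_sylow R hG
  have hUi : ¬ p ∣ (RGD.Sup X (RGD.Pos cs h)).index := by
    rw [← hS]
    exact S.not_dvd_index
  obtain ⟨k, hk⟩ : ∃ k, Rp cs R.nsys (w0 cs) k := by
    obtain ⟨ω, hω⟩ := cs.wordProd_surjective (w0 cs)
    rw [← hω]
    clear hω
    induction ω with
    | nil => exact ⟨1, by rw [wordProd_nil]; exact rp_one⟩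
    | cons i ω ih =>
      obtain ⟨k, hk⟩ := ih
      refine ⟨n i * k, ?_⟩
      rw [wordProd_cons]
      exact (rp_simple cs R.nsys i).mul hk
  refine MeetIn.of_one (RGD.Sup X (RGD.Pos cs h)) R.isPGroup_Upos hUi ⟨k, fun u hu hB => ?_⟩
  have hkU : k * u * k⁻¹ ∈ UN cs h X := by
    rw [← cj_U R hk]
    exact conj_mem_cj.2 hu
  have hUB : RGD.Sup X (RGD.Pos cs h) ≤ RGD.B cs h T X := RGD.U_le_B
  have h1 : k * u * k⁻¹ = 1 := eq_one_of_mem_UN_of_mem_B R hkU (hUB hB)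
  have h2 : k * u * k⁻¹ = k * 1 * k⁻¹ := by rw [h1]; group
  exact mul_left_cancel (mul_right_cancel h2)

end rgd

section chev

open Cfsg.Agent.ChevalleyStructure Cfsg.Agent.ChevalleyStructure.Elts
  Cfsg.Agent.ChevalleyStructure.BNChev Cfsg.Agent.Schreier.ChevLocal
  Cfsg.Agent.S1042 Cfsg.Agent.H70.AutFix Cfsg.Agent.H70.ChevTab Cfsg.Agent.H70.ChevFix Cfsg.Agent.H70.ChevField

/-- **Chevalley groups** -/
theorem meetIn_chev {D : ChevalleyDatum} (hD : InList D) {F : Type u} [Field F] [Finite F] {p : ℕ} [Fact p.Prime]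
    [CharP F p] : MeetIn p ↥(D.group F) := by
  have := Fintype.ofFinite F
  have hfinG : Finite ↥(D.group F) := inferInstance
  obtain ⟨n, a, L⟩ := exists_longest hD F
  set nE : ↥(D.group F) := ⟨n, monomial_le_group hD F L.mem⟩ with hnE
  obtain ⟨S, hS⟩ := Cfsg.Agent.S2326.result (F := F) p D hD
  have hUp : IsPGroup p ↥(UU D F) := by
    have h1 := S.isPGroup'
    rw [hS] at h1
    exact h1
  have hUi : ¬ p ∣ (UU D F).index := by
    have h1 := S.not_dvd_index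
    rw [hS] at h1
    exact h1
  have hnV : ∀ u ∈ UU D F, ((nE * u * nE⁻¹ : ↥(D.group F)) : GL D.Idx F) ∈ D.negUnipotent F := by
    have h1 : D.posUnipotent F ≤ (D.negUnipotent F).comap (MulAut.conj n).toMonoidHom := by
      rw [posUnipotent_le_iff hD]
      intro r hr t
      obtain ⟨η, -, h⟩ := L.conj r hr.1
      show n * xG hD r t * n⁻¹ ∈ D.negUnipotent F
      rw [h]
      exact xG_mem_negUnipotent hD (L.pos r hr) _
    intro u hu
    exact h1 hu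
  refine MeetIn.of_one (UU D F) hUp hUi ⟨nE, fun u hu h => ?_⟩
  have h0 : ((nE * u * nE⁻¹ : ↥(D.group F)) : GL D.Idx F) ∈ D.borelSubgroup F := Subgroup.mem_sup_left h
  have h1 : nE * u * nE⁻¹ = 1 := Subtype.ext (one_of_mem_borel_of_mem_neg h0 (hnV u hu) hD)
  have h2 : nE * u * nE⁻¹ = nE * 1 * nE⁻¹ := by rw [h1]; group
  exact mul_left_cancel (mul_right_cancel h2)

/-- `G₂, F₄, E₆, E₇, E₈` in characteristic `p` -/
theorem meet_chev (D : ChevalleyDatum) (hD : D ∈ [chevG2, chevF4, chevE6, chevE7, chevE8])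
    {F : Type u} [Field F] [Fintype F] {p : ℕ} [Fact p.Prime] [CharP F p] : MeetIn p ↥(D.group F) := by
  have hmem : D ∈ [chevG2, chevB2, chevD4, chevF4, chevE6, chevE7, chevE8] := by
    simp only [List.mem_cons, List.not_mem_nil, or_false] at hD ⊢
    tauto
  exact meetIn_chev hmem

end chev

section tw

open CoxeterSystem Cfsg.Agent.ChevalleyStructure.CoxeterGeom Cfsg.Agent.Tits.Roots Cfsg.Agent.Tits.Core
  Cfsg.Agent.Tits.Exchange Cfsg.Agent.Nodes.Reps Cfsg.Agent.Nodes.BNOf Cfsg.Agent.Nodes.StabComb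
  Cfsg.Agent.Nodes.Bruhat Cfsg.Agent.Nodes.OppDec Cfsg.Agent.Nodes.RGDTwGen Cfsg.Agent.Nodes.RGDChev
  Cfsg.Agent.Nodes.RGDFold Cfsg.Agent.Nodes.RGDFoldSL
open Cfsg.Agent.KFacts.RgdOpp Cfsg.Agent.KFacts.RgdAut Cfsg.Agent.KFacts.RgdDiag Cfsg.Agent.KFacts.RgdRigid
  Cfsg.Agent.KFacts.RgdField Cfsg.Agent.KFacts.RgdTau Cfsg.Agent.KFacts.RgdNodes
open Cfsg.Agent.ChevalleyStructure Cfsg.Agent.ChevalleyStructure.Elts Cfsg.Agent.ChevStructure.FieldMap

open Cfsg.Agent.KFacts.TwESix.NodeCoord Cfsg.Agent.KFacts.TwESix.Out Cfsg.Agent.KFacts.TwESix.OutTwo in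
open Cfsg.Agent.Nodes.RGDTwE6 in
open Cfsg.Agent.ChevalleyStructure.TwE6Basic (exists_frob) in
/-- **`²E₆(q)`** -/
theorem meet_2E6 {K : Type u} [Field K] [Fintype K] {q : ℕ} (hq : IsPrimePow q) (hK : Fintype.card K = q ^ 2)
    {p : ℕ} [Fact p.Prime] (hpq : p ∣ q) : MeetIn p ↥(twistedE6 K q) := by
  have hpp : p.Prime := Fact.out
  obtain ⟨φ, hφ, hqq⟩ := exists_frob hq hK
  obtain ⟨p', f, hp', hf, hpf⟩ := (isPrimePow_nat_iff _).1 hq
  obtain rfl : p = p' := by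
    rw [← hpf] at hpq
    exact (Nat.prime_dvd_prime_iff_eq hpp hp').1 (hpp.dvd_of_dvd_pow hpq)
  have hKp : Fintype.card K = p ^ (2 * f) := by rw [hK, ← hpf, ← pow_mul, mul_comm]
  have hchar : CharP K p := by
    obtain ⟨c, hc⟩ := CharP.exists K
    have : c = p := Cfsg.Agent.FixBN.TwESixSplit.char_eq (K := K) hpp hKp
    exact this ▸ hc
  have hW : Finite CoxeterMatrix.F₄.Group :=
    Cfsg.Agent.Nodes.RGDFold.finite_W (hp := Cfsg.Agent.Nodes.RGDTwE6.hp) CoxeterMatrix.F₄.toCoxeterSystem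
      Cfsg.Agent.Nodes.RGDTwE6.isCartan Cfsg.Agent.Nodes.RGDTwE6.foldData
  obtain ⟨cs, -⟩ : ∃ cs : CoxeterSystem CoxeterMatrix.F₄ CoxeterMatrix.F₄.Group, cs = cs :=
    ⟨CoxeterMatrix.F₄.toCoxeterSystem, rfl⟩
  have R := Cfsg.Agent.Nodes.RGDTwE6.rgd cs hφ hqq p
  have hG1 := G1_top cs hφ hqq
  exact meetIn_rgd R (GG_eq_top (T := T K q) hG1)

open Cfsg.Agent.KFacts.TwDFour.Out Cfsg.Agent.Nodes.RGDTwD4 in
/-- **`³D₄(q)`** -/
theorem meet_3D4 {K : Type u} [Field K] [Fintype K] {q : ℕ} (hq : IsPrimePow q) (hK : Fintype.card K = q ^ 3)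
    {p : ℕ} [Fact p.Prime] (hpq : p ∣ q) : MeetIn p ↥(twistedD4 K q) := by
  have hpp : p.Prime := Fact.out
  obtain ⟨φ, hφ⟩ := Cfsg.Agent.ChevalleyStructure.D4Fixed.exists_frob hq hK
  obtain ⟨p', f, hp', hf, hpf⟩ := (isPrimePow_nat_iff _).1 hq
  obtain rfl : p = p' := by
    rw [← hpf] at hpq
    exact (Nat.prime_dvd_prime_iff_eq hpp hp').1 (hpp.dvd_of_dvd_pow hpq)
  have hKp : Fintype.card K = p ^ (3 * f) := by rw [hK, ← hpf, ← pow_mul, mul_comm]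
  have hchar : CharP K p := by
    obtain ⟨c, hc⟩ := CharP.exists K
    have : c = p := Cfsg.Agent.FixBN.TwESixSplit.char_eq (K := K) hpp hKp
    exact this ▸ hc
  obtain ⟨cs, -⟩ : ∃ cs : CoxeterSystem CoxeterMatrix.G₂ CoxeterMatrix.G₂.Group, cs = cs :=
    ⟨CoxeterMatrix.G₂.toCoxeterSystem, rfl⟩
  have hW : Finite CoxeterMatrix.G₂.Group := finiteW cs
  have R := Cfsg.Agent.Nodes.RGDTwD4.rgd cs hK hφ p
  have hG1 : RGD.Sup (X φ q) {x | IsRoot cs isCartan x} = ⊤ := G1_eq_top cs hK hφ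
  exact meetIn_rgd R (GG_eq_top (T := T K q) hG1)

end tw

end Cfsg.Agent.H808.Meet
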