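import Cfsg.Agent.KFacts.TwF4.Full
import Cfsg.Agent.H68.MeetBase
import Cfsg.Agent.S1163

/-!
# `MeetIn 2`: Suzuki groups, `²F₄(q)`, the Tits group (helper808)
-/

set_option autoImplicit false
set_option linter.unusedSectionVars false

namespace Cfsg.Agent.H808.Meet

open Cfsg Cfsg.Lie Cfsg.Agent.H68.MeetB

universe u

/-- a `p`-subgroup containing all `p`-elements of its normaliser is a Sylow subgroup -/
theorem not_dvd_index_of_normalizer {G : Type*} [Group G] [Finite G] {p : ℕ} [Fact p.Prime] {U : Subgroup G}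
    (hU : IsPGroup p U) (h : ∀ x ∈ Subgroup.normalizer (U : Set G), (∃ k, x ^ p ^ k = 1) → x ∈ U) :
    ¬ p ∣ U.index := by
  obtain ⟨S, hS⟩ := hU.exists_le_sylow
  have hSU : (S : Subgroup G) = U := by
    by_contra hne
    have hnil : Group.IsNilpotent (S : Subgroup G) := S.isPGroup'.isNilpotent
    have hlt : U.subgroupOf (S : Subgroup G) < ⊤ := by
      rw [lt_top_iff_ne_top, Ne, Subgroup.subgroupOf_eq_top]
      intro h1
      exact hne (le_antisymm h1 hS)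
    have h2 := Group.normalizerCondition_of_isNilpotent (G := (S : Subgroup G)) _ hlt
    obtain ⟨x, hx, hxU⟩ := SetLike.exists_of_lt h2
    apply hxU
    rw [Subgroup.mem_subgroupOf]
    apply h
    · rw [Subgroup.mem_normalizer_iff] at hx ⊢
      intro y
      constructor
      · intro hy
        exact (hx ⟨y, hS hy⟩).1 hy
      · intro hy
        have hy' : y ∈ (S : Subgroup G) := by
          have h3 := hS hy
          have h4 : y = (x : G)⁻¹ * ((x : G) * y * (x : G)⁻¹) * (x : G) := by group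
          rw [h4]
          exact mul_mem (mul_mem (inv_mem x.2) h3) x.2
        exact (hx ⟨y, hy'⟩).2 hy
    · obtain ⟨k, hk⟩ := S.isPGroup' x
      exact ⟨k, congrArg Subtype.val hk⟩
  rw [← hSU]
  exact S.not_dvd_index

/-- a normal subgroup containing the element `x` -/
theorem meetIn_normal {G : Type*} [Group G] [Finite G] {p : ℕ} [Fact p.Prime] {U : Subgroup G} (hU : IsPGroup p U)
    (hi : ¬ p ∣ U.index) {N : Subgroup G} [N.Normal] {x : G} (hx : x ∈ N)
    (h : ∀ y ∈ U, x * y * x⁻¹ ∈ U → y = 1) : MeetIn p ↥N := by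
  intro R hR
  have hR' : IsPGroup p (R.map N.subtype) := hR.map _
  obtain ⟨S, hS⟩ := hR'.exists_le_sylow
  let P' : Sylow p G := hU.toSylow hi
  obtain ⟨g, hg⟩ := MulAction.exists_smul_eq G P' S
  have key : ∀ y ∈ R.map N.subtype, g⁻¹ * y * g ∈ U := by
    intro y hy
    have h1 : y ∈ (S : Subgroup G) := hS hy
    rw [← hg, Sylow.smul_def] at h1
    obtain ⟨s, hs, rfl⟩ := (Subgroup.mem_smul_pointwise_iff_exists _ _ _).1 h1
    have hs' : s ∈ U := hs
    simpa [MulAut.smul_def, MulAut.conj_apply, mul_assoc] using hs'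
  have hn : g * x * g⁻¹ ∈ N := Subgroup.Normal.conj_mem inferInstance x hx g
  refine ⟨⟨g * x * g⁻¹, hn⟩, fun y hy hxy => ?_⟩
  have h1 := h (g⁻¹ * (y : G) * g) (key _ ⟨y, hy, rfl⟩) (by
    have h2 := key _ ⟨_, hxy, rfl⟩
    have h3 : g⁻¹ * (g * x * g⁻¹ * (y : G) * (g * x * g⁻¹)⁻¹) * g = x * (g⁻¹ * (y : G) * g) * x⁻¹ := by group
    rw [← h3]
    exact h2)
  apply Subtype.ext
  have h2 : (y : G) = g * (g⁻¹ * (y : G) * g) * g⁻¹ := by group
  rw [h2, h1]
  simp

/-! ### Suzuki groups -/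

theorem meet_of_regular {G : Type*} [Group G] [Finite G] {p : ℕ} [Fact p.Prime] (S : Sylow p G) {N : Subgroup G}
    (hSN : (S : Subgroup G) ≤ N) (hidx : N.index ≠ 1)
    (hreg : ∀ x y : G ⧸ N, x ≠ QuotientGroup.mk 1 → y ≠ QuotientGroup.mk 1 →
      ∃! s : ↥(S : Subgroup G), (s : G) • x = y) : MeetIn p G := by
  obtain ⟨x, hx⟩ : ∃ x : G, x ∉ N := by
    by_contra hc
    push Not at hc
    apply hidx
    rw [Subgroup.index_eq_one, eq_top_iff]
    exact fun x _ => hc x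
  refine MeetIn.of_one (S : Subgroup G) S.isPGroup' S.not_dvd_index ⟨x⁻¹, fun y hy hxy => ?_⟩
  have hne : (QuotientGroup.mk x : G ⧸ N) ≠ QuotientGroup.mk 1 := by
    intro h
    rw [QuotientGroup.eq] at h
    apply hx
    rw [mul_one] at h
    exact (inv_mem_iff).1 h
  obtain ⟨s, -, hs⟩ := hreg _ _ hne hne
  have h1 : (y : G) • (QuotientGroup.mk x : G ⧸ N) = QuotientGroup.mk x := by
    change (QuotientGroup.mk (y * x) : G ⧸ N) = QuotientGroup.mk x
    rw [eq_comm, QuotientGroup.eq, ← mul_assoc]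
    rw [inv_inv] at hxy
    exact hSN hxy
  have h2 := hs ⟨y, hy⟩ h1
  have h3 := hs 1 (one_smul G _)
  exact congrArg Subtype.val (h2.trans h3.symm)

theorem meet_Sz {G : Type*} [Group G] (hG : IsoSuzuki G) : MeetIn 2 G := by
  obtain ⟨F, hF1, hF2, m, hm, hF, ⟨e⟩⟩ := hG
  have : Fact (Nat.Prime 2) := ⟨Nat.prime_two⟩
  obtain ⟨hc, S, -, hidx, -, hreg⟩ := Cfsg.Agent.S1163.result hm hF
  have hfin : Finite ↥(Cfsg.Lie.Sz F (2 ^ (m + 1))) := by
    apply Nat.finite_of_card_ne_zero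
    rw [hc]
    have h1 : 2 ≤ 2 ^ (2 * m + 1) := Nat.le_self_pow (by omega) 2
    have h2 : 0 < 2 ^ (2 * m + 1) - 1 := by omega
    positivity
  have hidx' : (Subgroup.normalizer ((S : Subgroup ↥(Cfsg.Lie.Sz F (2 ^ (m + 1)))) :
      Set ↥(Cfsg.Lie.Sz F (2 ^ (m + 1))))).index ≠ 1 := by
    rw [hidx]
    have : 0 < (2 ^ (2 * m + 1)) ^ 2 := by positivity
    omega
  exact MeetIn.congr e.symm (meet_of_regular S Subgroup.le_normalizer hidx' hreg)

end Cfsg.Agent.H808.Meet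

namespace Cfsg.Agent.H808.Meet

open Cfsg Cfsg.Lie Cfsg.Agent.H68.MeetB
open Cfsg.Agent.ChevalleyStructure.TwF4.Rel Cfsg.Agent.ChevalleyStructure.TwF4.Fix
open Cfsg.Agent.ChevalleyStructure.TwF4.Groups Cfsg.Agent.ChevalleyStructure.TwF4.RankOne
open Cfsg.Agent.ChevalleyStructure.TwF4.Twisted Cfsg.Agent.ChevalleyStructure.TwF4.TwistedFix
open Cfsg.Agent.ChevalleyStructure.TwF4.BN
open Cfsg.Agent.Octagon.Pkg Cfsg.Agent.Octagon.KRel Cfsg.Agent.Octagon.KSys Cfsg.Agent.Octagon.KPar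
open Cfsg.Agent.ChevalleyStructure.TwF4.Torus Cfsg.Agent.ChevalleyStructure.TwF4.TwGen
open Cfsg.Agent.TitsThree.RankTwoZ Cfsg.Agent.SplitTwo
open Cfsg.Agent.KFacts.TwF4.Inst Cfsg.Agent.Schreier.TwFFour

section

variable {K : Type*} [Field K] [Fintype K] {m : ℕ}

/-- `U` is a Sylow 2-subgroup -/
theorem index_U0 [CharP K 2] (hK : Fintype.card K = 2 ^ (2 * m + 1)) : ¬ 2 ∣ (U0 K (2 ^ m)).index := by
  have : Fact (Nat.Prime 2) := ⟨Nat.prime_two⟩
  have : Finite K := inferInstance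
  obtain ⟨φ, hφ⟩ := exists_rln hK
  refine not_dvd_index_of_normalizer (isPGroup_U0 hK) ?_
  rintro x hx ⟨k, hk⟩
  rw [U0_normal_B hφ] at hx
  obtain ⟨s, t, u, hu, hxu⟩ := (dec hK hφ).1 x hx
  set n := 2 ^ (2 * m + 1) - 1 with hn
  have hT : T (tc (2 ^ m) s t) ^ n = (1 : GL chevF4.Idx K) := by
    rw [← map_pow]
    have h2 : tc (2 ^ m) s t ^ n = 1 := by
      have h3 : ∀ x : Kˣ, x ^ n = 1 := by
        intro x
        have h4 := pow_card_eq_one' (x := x)
        rwa [Nat.card_units, Nat.card_eq_fintype_card, hK] at h4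
      funext l
      rw [Pi.pow_apply, h3]; rfl
    rw [h2, map_one]
  -- `x ^ j ∈ U T ^ j`
  have hpow : ∀ j : ℕ, ∃ v ∈ U0 K (2 ^ m), ((x ^ j : ↥(twistedF4 K (2 ^ m))) : GL chevF4.Idx K) =
      (v : GL chevF4.Idx K) * T (tc (2 ^ m) s t) ^ j := by
    intro j
    induction j with
    | zero => exact ⟨1, one_mem _, by simp⟩
    | succ j ih =>
      obtain ⟨v, hv, hvj⟩ := ih
      refine ⟨x * v * x⁻¹ * u, mul_mem (conj_U0 hx hv) hu, ?_⟩
      rw [pow_succ', Subgroup.coe_mul, hvj, Subgroup.coe_mul, Subgroup.coe_mul, Subgroup.coe_mul, Subgroup.coe_inv,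
        pow_succ']
      have e1 : (x : GL chevF4.Idx K)⁻¹ * (u : GL chevF4.Idx K) = (T (tc (2 ^ m) s t))⁻¹ := by
        rw [hxu]; group
      calc (x : GL chevF4.Idx K) * ((v : GL chevF4.Idx K) * T (tc (2 ^ m) s t) ^ j)
          = (x : GL chevF4.Idx K) * (v : GL chevF4.Idx K) * ((T (tc (2 ^ m) s t))⁻¹ *
            (T (tc (2 ^ m) s t) * T (tc (2 ^ m) s t) ^ j)) := by group
        _ = _ := by rw [← e1]; group
  obtain ⟨v, hv, hvn⟩ := hpow n
  rw [hT, mul_one] at hvn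
  have hxn : x ^ n ∈ U0 K (2 ^ m) := by
    have : x ^ n = v := Subtype.ext hvn
    rw [this]; exact hv
  -- `n` is odd
  have hodd : Nat.Coprime n (2 ^ k) := by
    apply Nat.Coprime.pow_right
    rw [Nat.coprime_two_right, hn]
    exact Nat.Even.sub_odd Nat.one_le_two_pow (Even.pow_of_ne_zero (by norm_num) (by omega)) odd_one
  obtain ⟨y, hy⟩ := exists_pow_eq_self_of_coprime (n := n) (x := x) (by
    refine hodd.coprime_dvd_right (orderOf_dvd_of_pow_eq_one hk))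
  rw [← hy]
  exact pow_mem hxn _

/-- the longest element -/
def ww {φ : K →+* K} {e : ℕ} [CharP K 2] (hφ : Rln φ e) : ↥(twistedF4 K e) :=
  (m1 K e * m2 hφ) * ((m1 K e * m2 hφ) * ((m1 K e * m2 hφ) * (m1 K e * m2 hφ)))

theorem ww_meet {φ : K →+* K} {e : ℕ} [CharP K 2] (hφ : Rln φ e) :
    ∀ u ∈ U0 K e, ww hφ * u * (ww hφ)⁻¹ ∈ U0 K e → u = 1 := by
  intro u hu hwu
  have hwA : Act ((ww hφ : ↥(twistedF4 K e)) : GL chevF4.Idx K)
    (fun r => w1 (w2 (w1 (w2 (w1 (w2 (w1 (w2 r)))))))) := Act_rot4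
  have h4 : (ww hφ : GL chevF4.Idx K) * u * (ww hφ : GL chevF4.Idx K)⁻¹ ∈ GA K negB := by
    refine Act_conj hwA ?_ u hu
    intro r hr hA
    have h5 := List.all_eq_true.1 p4_neg r (List.mem_range.2 hr)
    have h6 : 24 ≤ r := of_decide_eq_true hA
    simp only [Bool.or_eq_true, decide_eq_true_eq] at h5
    exact decide_eq_true (h5.resolve_left (by omega))
  have h5 : (ww hφ : GL chevF4.Idx K) * u * (ww hφ : GL chevF4.Idx K)⁻¹ ∈ chevF4.borelSubgroup K := U_le_borel hwu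
  have h6 := borel_inf_negB _ h5 h4
  apply Subtype.ext
  have e1 : (u : GL chevF4.Idx K) = (ww hφ : GL chevF4.Idx K)⁻¹ * ((ww hφ : GL chevF4.Idx K) * u *
      (ww hφ : GL chevF4.Idx K)⁻¹) * (ww hφ : GL chevF4.Idx K) := by group
  rw [e1, h6]
  simp

theorem ww_mem {φ : K →+* K} {e : ℕ} [CharP K 2] (hφ : Rln φ e) : ww hφ ∈ commutator ↥(twistedF4 K e) := by
  have h1 : m1 K e * m1 K e = 1 := Subtype.ext n1_mul_self
  have h2 : m2 hφ * m2 hφ = 1 := Subtype.ext n2_mul_self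
  rw [← Abelianization.ker_of, MonoidHom.mem_ker, ww]
  simp only [map_mul]
  have e1 : Abelianization.of (m1 K e) * Abelianization.of (m1 K e) = 1 := by rw [← map_mul, h1, map_one]
  have e2 : Abelianization.of (m2 hφ) * Abelianization.of (m2 hφ) = 1 := by rw [← map_mul, h2, map_one]
  generalize Abelianization.of (m1 K e) = a at e1 ⊢
  generalize Abelianization.of (m2 hφ) = b at e2 ⊢
  have e3 : a * b * (a * b * (a * b * (a * b))) = (a * a) * (a * a) * ((b * b) * (b * b)) := by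
    simp only [mul_comm, mul_left_comm]
  rw [e3, e1, e2]
  simp

/-- `²F₄(q)`, `q = 2, 8, …` -/
theorem meet_twistedF4 (hK : Fintype.card K = 2 ^ (2 * m + 1)) : MeetIn 2 ↥(twistedF4 K (2 ^ m)) := by
  have : CharP K 2 := charP_two hK
  have : Fact (Nat.Prime 2) := ⟨Nat.prime_two⟩
  obtain ⟨φ, hφ⟩ := exists_rln hK
  exact MeetIn.of_one (U0 K (2 ^ m)) (isPGroup_U0 hK) (index_U0 hK) ⟨ww hφ, ww_meet hφ⟩

/-- its derived subgroup -/
theorem meet_derived (hK : Fintype.card K = 2 ^ (2 * m + 1)) : MeetIn 2 ↥(commutator ↥(twistedF4 K (2 ^ m))) := by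
  have : CharP K 2 := charP_two hK
  have : Fact (Nat.Prime 2) := ⟨Nat.prime_two⟩
  obtain ⟨φ, hφ⟩ := exists_rln hK
  exact meetIn_normal (isPGroup_U0 hK) (index_U0 hK) (ww_mem hφ) (ww_meet hφ)

end

theorem meet_2F4 {G : Type*} [Group G] (hG : Iso2F4 G) : MeetIn 2 G := by
  obtain ⟨K, hK1, hK2, m, hm, hK, ⟨e⟩⟩ := hG
  exact MeetIn.congr e.symm (meet_twistedF4 hK)

theorem meet_Tits {G : Type*} [Group G] (hG : IsoTits G) : MeetIn 2 G := by
  obtain ⟨e⟩ := hG
  have key : ∀ j : ℕ, j = 2 ^ 0 → MeetIn 2 ↥(commutator ↥(twistedF4 (ZMod 2) j)) := by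
    rintro _ rfl
    exact meet_derived (by rw [ZMod.card]; norm_num)
  have h : MeetIn 2 TitsGroup := key 1 (pow_zero 2).symm
  have h' := @MeetIn.congr 2 TitsGroup _ G _ e.symm
  exact h' h

end Cfsg.Agent.H808.Meet
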